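import Cfsg.Agent.Lib.Helper9.AschU.Base
import Cfsg.Agent.Lib.Helper2.Sp.Base

set_option autoImplicit false
set_option linter.unusedSectionVars false
set_option linter.style.haveILetI false

namespace Cfsg.Agent.Lib.Helper23.AschU

open Cfsg Cfsg.Geo Matrix Cfsg.Agent.Lib.Helper13 Cfsg.Agent.Lib.Helper13.Asch
  Cfsg.Agent.Lib.Helper5.SUAsch Cfsg.Agent.Lib.Helper9.AschU
open scoped Kronecker MatrixGroups

variable {F : Type*} [Field F] [Fintype F] {n q : ℕ}

theorem hermForm_zero_right' (hF : Fintype.card F = q ^ 2) (u : Fin n → F) :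
    hermForm n F q u 0 = 0 := by
  have hq := two_le_of_card_sq hF
  have := hermForm_smul_right (q := q) (0 : F) u 0
  rw [zero_smul, zero_pow (by omega), zero_mul] at this
  exact this

theorem hermForm_neg_right' (hF : Fintype.card F = q ^ 2) (u v : Fin n → F) :
    hermForm n F q u (-v) = - hermForm n F q u v := by
  have h := hermForm_add_right hF u v (-v)
  rw [add_neg_cancel, hermForm_zero_right' hF] at h
  exact (neg_eq_of_add_eq_zero_right h.symm).symm

theorem hermForm_sub_right' (hF : Fintype.card F = q ^ 2) (u v w : Fin n → F) :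
    hermForm n F q u (v - w) = hermForm n F q u v - hermForm n F q u w := by
  rw [sub_eq_add_neg, hermForm_add_right hF, hermForm_neg_right' hF, sub_eq_add_neg]

theorem hermForm_eq_zero_swap (hF : Fintype.card F = q ^ 2) {u v : Fin n → F}
    (h : hermForm n F q u v = 0) : hermForm n F q v u = 0 := by
  have hq := two_le_of_card_sq hF
  rw [← hermForm_swap hF, h, zero_pow (by omega)]

/-- `{v | ∀ w ∈ W, f w v = 0}` for the standard unitary form -/
def uperp (hF : Fintype.card F = q ^ 2) (W : Submodule F (Fin n → F)) :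
    Submodule F (Fin n → F) where
  carrier := {v | ∀ w ∈ W, hermForm n F q w v = 0}
  add_mem' := by
    intro a b ha hb w hw
    rw [hermForm_add_right hF, ha w hw, hb w hw, add_zero]
  zero_mem' := fun w _ => hermForm_zero_right' hF w
  smul_mem' := by
    intro c v hv w hw
    rw [hermForm_smul_right, hv w hw, mul_zero]

theorem mem_uperp (hF : Fintype.card F = q ^ 2) {W : Submodule F (Fin n → F)} {v : Fin n → F} :
    v ∈ uperp hF W ↔ ∀ w ∈ W, hermForm n F q w v = 0 := Iff.rfl

theorem fixesForm_of_le_GU {H : Subgroup (GL (Fin n) F)} (hH : H ≤ GU n F q) :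
    FixesForm (matrixSet H) (hermForm n F q) := by
  rintro _ ⟨g, hg, rfl⟩ u v
  exact hH hg u v

theorem uperp_inv (hF : Fintype.card F = q ^ 2) {H : Subgroup (GL (Fin n) F)} (hH : H ≤ GU n F q)
    {W : Submodule F (Fin n → F)} (h : ∀ s ∈ matrixSet H, W.map (Matrix.toLin' s) ≤ W) :
    ∀ s ∈ matrixSet H, (uperp hF W).map (Matrix.toLin' s) ≤ uperp hF W := by
  apply Cfsg.Agent.Lib.Helper2.Sp.inv_of_mulVec_mem
  intro g hg v hv
  rw [mem_uperp] at hv ⊢
  intro w hw
  rw [Cfsg.Agent.Lib.Helper2.Sp.fixes_adj (fixesForm_of_le_GU hH) hg]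
  exact hv _ (Cfsg.Agent.Lib.Helper2.Sp.mulVec_mem_of_inv h (H.inv_mem hg) hw)

/-- a subspace meeting its perp trivially is complemented by it -/
theorem sup_uperp_eq_top (hF : Fintype.card F = q ^ 2) {W : Submodule F (Fin n → F)}
    (hR : W ⊓ uperp hF W = ⊥) : W ⊔ uperp hF W = ⊤ := by
  classical
  let T : ↥W → Module.Dual F ↥W := fun w' =>
    { toFun := fun w => hermForm n F q w.1 w'.1
      map_add' := fun a b => hermForm_add_left a.1 b.1 w'.1
      map_smul' := fun c a => hermForm_smul_left c a.1 w'.1 }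
  have hinj : Function.Injective T := by
    intro a b hab
    have h1 : a.1 - b.1 ∈ W ⊓ uperp hF W := by
      refine ⟨W.sub_mem a.2 b.2, ?_⟩
      intro w hw
      have h2 := congrArg (fun φ : Module.Dual F ↥W => φ ⟨w, hw⟩) hab
      have h3 : hermForm n F q w a.1 = hermForm n F q w b.1 := h2
      rw [hermForm_sub_right' hF, h3, sub_self]
    rw [hR, Submodule.mem_bot, sub_eq_zero] at h1
    exact Subtype.ext h1
  have hsurj : Function.Surjective T :=
    (Finite.injective_iff_surjective_of_equiv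
      (Module.finBasis F ↥W).toDualEquiv.toEquiv).1 hinj
  rw [eq_top_iff]
  intro v _
  let φ : Module.Dual F ↥W :=
    { toFun := fun w => hermForm n F q w.1 v
      map_add' := fun a b => hermForm_add_left a.1 b.1 v
      map_smul' := fun c a => hermForm_smul_left c a.1 v }
  obtain ⟨w', hw'⟩ := hsurj φ
  have h1 : v - w'.1 ∈ uperp hF W := by
    intro w hw
    have h2 := congrArg (fun ψ : Module.Dual F ↥W => ψ ⟨w, hw⟩) hw'
    have h3 : hermForm n F q w w'.1 = hermForm n F q w v := h2
    rw [hermForm_sub_right' hF, h3, sub_self]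
  have h4 : v = w'.1 + (v - w'.1) := by abel
  rw [h4]
  exact Submodule.add_mem_sup w'.2 h1

/-- U1 -/
theorem ucls_of_reducible (hF : Fintype.card F = q ^ 2) {H : Subgroup (GL (Fin n) F)}
    (hH : H ≤ GU n F q) (W : Submodule F (Fin n → F)) (h0 : W ≠ ⊥) (h1 : W ≠ ⊤)
    (hW : ∀ s ∈ matrixSet H, W.map (Matrix.toLin' s) ≤ W) : UCls n q H := by
  set P := uperp hF W with hP
  have hPinv : ∀ s ∈ matrixSet H, P.map (Matrix.toLin' s) ≤ P := uperp_inv hF hH hW
  by_cases hR : W ⊓ P = ⊥
  · have hsup : W ⊔ P = ⊤ := sup_uperp_eq_top hF hR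
    have hdim : Module.finrank F W + Module.finrank F P = n := by
      have := Submodule.finrank_sup_add_finrank_inf_eq W P
      rw [hR, hsup, finrank_bot, add_zero, finrank_top, Module.finrank_fin_fun] at this
      exact this.symm
    have hWnd : IsNondegenerateOn (hermForm n F q) W := by
      intro w hw hw0
      have h2 : w ∉ P := by
        intro hwP
        apply hw0
        have : w ∈ W ⊓ P := ⟨hw, hwP⟩
        rw [hR] at this
        simpa using this
      rw [hP, mem_uperp] at h2
      push Not at h2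
      obtain ⟨x, hx, hxw⟩ := h2
      exact ⟨⟨x, hx, hxw⟩, ⟨x, hx, fun h => hxw (hermForm_eq_zero_swap hF h)⟩⟩
    have hPnd : IsNondegenerateOn (hermForm n F q) P := by
      intro w hw hw0
      obtain ⟨y, hy⟩ := (hermForm_nondegenerate hF w hw0).1
      have hy' : y ∈ W ⊔ P := by rw [hsup]; trivial
      obtain ⟨y1, hy1, y2, hy2, rfl⟩ := Submodule.mem_sup.1 hy'
      have h3 : hermForm n F q y1 w = 0 := (mem_uperp hF).1 hw y1 hy1
      rw [hermForm_add_left, h3, zero_add] at hy
      exact ⟨⟨y2, hy2, hy⟩, ⟨y2, hy2, fun h => hy (hermForm_eq_zero_swap hF h)⟩⟩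
    have hWpos : 0 < Module.finrank F W := Module.finrank_pos_iff_exists_ne_zero.2 (by
      obtain ⟨w, hw, hw0⟩ := (Submodule.ne_bot_iff W).1 h0
      exact ⟨⟨w, hw⟩, fun h => hw0 (congrArg Subtype.val h)⟩)
    rcases lt_trichotomy (2 * Module.finrank F W) n with hlt | heq | hgt
    · right; left
      exact ⟨W, h0, hWnd, hlt, Helper58.Asch.le_subspaceStabilizer hW⟩
    · right; right; left
      refine ⟨2, Module.finrank F W, ![W, P], ⟨?_, ?_, ?_⟩, ?_⟩
      · exact Cfsg.Agent.Lib.Helper2.Sp.isMDecomposition_pair hWpos (disjoint_iff.2 hR) hsup rfl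
          (by omega)
      · intro i
        fin_cases i
        · exact hWnd
        · exact hPnd
      · intro i j hij u hu v hv
        fin_cases i <;> fin_cases j
        · exact absurd rfl hij
        · exact (mem_uperp hF).1 hv u hu
        · exact hermForm_eq_zero_swap hF ((mem_uperp hF).1 hu v hv)
        · exact absurd rfl hij
      · intro g hg
        refine ⟨1, fun i => ?_⟩
        fin_cases i
        · exact Cfsg.Agent.Lib.Helper2.Sp.map_eq_of_inv hW hg
        · exact Cfsg.Agent.Lib.Helper2.Sp.map_eq_of_inv hPinv hg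
    · right; left
      refine ⟨P, ?_, hPnd, by omega, Helper58.Asch.le_subspaceStabilizer hPinv⟩
      intro hPbot
      rw [hPbot, sup_bot_eq] at hsup
      exact h1 hsup
  · left
    refine ⟨W ⊓ P, hR, ?_, ?_⟩
    · intro u hu v hv
      exact (mem_uperp hF).1 hv.2 u hu.1
    · apply Helper58.Asch.le_subspaceStabilizer
      apply Cfsg.Agent.Lib.Helper2.Sp.inv_of_mulVec_mem
      intro g hg v hv
      exact ⟨Cfsg.Agent.Lib.Helper2.Sp.mulVec_mem_of_inv hW hg hv.1,
        Cfsg.Agent.Lib.Helper2.Sp.mulVec_mem_of_inv hPinv hg hv.2⟩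

end Cfsg.Agent.Lib.Helper23.AschU
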