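import Cfsg.Agent.Lib.Helper9.AschU.Defs
import Cfsg.Agent.Lib.Helper58.Asch.L3

set_option autoImplicit false
set_option linter.unusedSectionVars false
set_option linter.style.haveILetI false

namespace Cfsg.Agent.Lib.Helper23.AschU

open Cfsg Cfsg.Geo Matrix Cfsg.Agent.Lib.Helper13 Cfsg.Agent.Lib.Helper13.Asch
  Cfsg.Agent.Lib.Helper5.SUAsch Cfsg.Agent.Lib.Helper9.AschU
open scoped Kronecker MatrixGroups

variable {F : Type*} [Field F] [Fintype F] {n q : ℕ}

/-- a finite extension of the field with `q ^ 2` elements with an involutory ring endomorphism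
inducing `c ↦ c ^ q` on the ground field does not have degree two -/
theorem finrank_ne_two_of_semilinear_involution (hF : Fintype.card F = q ^ 2)
    (L : Type*) [Field L] [Finite L] [Algebra F L] (α : L →+* L)
    (hα1 : ∀ c : F, α (algebraMap F L c) = algebraMap F L (c ^ q)) (hα2 : ∀ x, α (α x) = x) :
    Module.finrank F L ≠ 2 := by
  intro h2
  obtain ⟨p, k, hp, hchar, hq⟩ := exists_char_pow hF
  haveI : Fact p.Prime := ⟨hp⟩
  haveI : CharP L p := charP_of_injective_algebraMap (algebraMap F L).injective p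
  let fr : L →+* L := iterateFrobenius L p k
  have hfr : ∀ x, fr x = x ^ q := fun x => by rw [hq]; exact iterateFrobenius_def p k x
  let θ : L →ₐ[F] L :=
    { (fr.comp α) with
      commutes' := fun c => by
        show fr (α (algebraMap F L c)) = algebraMap F L c
        rw [hα1, hfr, ← map_pow, pow_q_pow_q hF] }
  have hθθ : ∀ x, θ (θ x) = x ^ Fintype.card F := by
    intro x
    show fr (α (fr (α x))) = _
    rw [hfr, hfr, map_pow, hα2, ← pow_mul, hF, sq]
  have hfd : FiniteDimensional F L := Module.Finite.of_finite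
  let E : L ≃ₐ[F] L := AlgEquiv.ofBijective θ θ.bijective
  set Hs := Subgroup.zpowers E with hHs
  have hfix : Module.finrank (IntermediateField.fixedField Hs) L = orderOf E := by
    rw [IntermediateField.finrank_fixedField_eq_card, Nat.card_zpowers]
  have hmul := Module.finrank_mul_finrank F (IntermediateField.fixedField Hs) L
  rw [hfix, h2] at hmul
  have hE2 : E ^ 2 = 1 := orderOf_dvd_iff_pow_eq_one.1 (Dvd.intro_left _ hmul)
  have hall : ∀ x : L, x ^ Fintype.card F = x := by
    intro x
    rw [← hθθ x]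
    have := congrArg (fun g : L ≃ₐ[F] L => g x) hE2
    exact this
  have hφ : FiniteField.frobeniusAlgEquivOfAlgebraic F L = 1 := by
    apply AlgEquiv.ext
    intro x
    rw [FiniteField.coe_frobeniusAlgEquivOfAlgebraic]
    exact hall x
  have hord := FiniteField.orderOf_frobeniusAlgEquivOfAlgebraic F L
  rw [hφ, orderOf_one, h2] at hord
  omega

theorem u3_adj_mul (hF : Fintype.card F = q ^ 2) {ι : Type} [Fintype ι] (X Y : Matrix ι ι F) :
    adj q (X * Y) = adj q Y * adj q X := by
  ext i j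
  simp only [adj, Matrix.mul_apply]
  rw [sum_pow_q hF]
  apply Finset.sum_congr rfl
  intro k _
  rw [mul_pow, mul_comm]

theorem u3_adj_add (hF : Fintype.card F = q ^ 2) {ι : Type} (X Y : Matrix ι ι F) :
    adj q (X + Y) = adj q X + adj q Y := by
  ext i j
  simp only [adj, Matrix.add_apply]
  exact add_pow_q hF _ _

theorem u3_adj_smul {ι : Type} (c : F) (X : Matrix ι ι F) : adj q (c • X) = c ^ q • adj q X := by
  ext i j
  simp only [adj, Matrix.smul_apply, smul_eq_mul, mul_pow]

theorem u3_adj_one (hF : Fintype.card F = q ^ 2) {ι : Type} [DecidableEq ι] :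
    adj q (1 : Matrix ι ι F) = 1 := by
  have hq := two_le_of_card_sq hF
  ext i j
  simp only [adj, Matrix.one_apply]
  by_cases h : i = j
  · rw [if_pos h, if_pos h.symm, one_pow]
  · rw [if_neg h, if_neg (fun e => h e.symm), zero_pow (by omega)]

theorem u3_adj_zero (hF : Fintype.card F = q ^ 2) {ι : Type} :
    adj q (0 : Matrix ι ι F) = 0 := by
  have hq := two_le_of_card_sq hF
  ext i j
  simp only [adj, Matrix.zero_apply]
  exact zero_pow (by omega)

theorem u3_adj_adj (hF : Fintype.card F = q ^ 2) {ι : Type} (X : Matrix ι ι F) :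
    adj q (adj q X) = X := by
  ext i j
  simp only [adj]
  exact pow_q_pow_q hF _

theorem u3_adj_pow (hF : Fintype.card F = q ^ 2) {ι : Type} [Fintype ι] [DecidableEq ι]
    (X : Matrix ι ι F) (m : ℕ) : adj q (X ^ m) = adj q X ^ m := by
  induction m with
  | zero => simpa using u3_adj_one hF
  | succ m ih => rw [pow_succ, u3_adj_mul hF, ih, pow_succ']

/-- a star closed field subalgebra does not have degree two -/
theorem not_isFieldSubalgebra_two (hF : Fintype.card F = q ^ 2)
    (K : Subalgebra F (Matrix (Fin n) (Fin n) F)) (hK : IsFieldSubalgebra 2 K)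
    (hstar : StarClosed q K) : False := by
  have hnt : Nontrivial (Matrix (Fin n) (Fin n) F) := by
    by_contra h
    rw [not_nontrivial_iff_subsingleton] at h
    have h1 : Module.finrank F ↥K = 0 := by
      haveI : Subsingleton ↥K := ⟨fun a b => Subtype.ext (Subsingleton.elim _ _)⟩
      exact Module.finrank_zero_of_subsingleton
    rw [hK.finrank_eq] at h1
    omega
  have hfield : IsField ↥K :=
    { exists_pair_ne := ⟨0, 1, fun h => zero_ne_one (congrArg Subtype.val h)⟩
      mul_comm := fun x y => Subtype.ext (hK.comm x.1 x.2 y.1 y.2)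
      mul_inv_cancel := by
        intro a ha
        obtain ⟨y, hy, hay⟩ := hK.inv a.1 a.2 (fun h => ha (Subtype.ext h))
        exact ⟨⟨y, hy⟩, Subtype.ext hay⟩ }
  let instF : Field ↥K := hfield.toField
  let instA : Algebra F ↥K := K.algebra
  have hfinite : Finite ↥K := inferInstance
  let α : ↥K →+* ↥K :=
    { toFun := fun x => ⟨adj q x.1, hstar x.1 x.2⟩
      map_one' := Subtype.ext (u3_adj_one hF)
      map_mul' := fun x y => Subtype.ext (by
        show adj q (x.1 * y.1) = adj q x.1 * adj q y.1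
        rw [u3_adj_mul hF, hK.comm _ (hstar _ y.2) _ (hstar _ x.2)])
      map_zero' := Subtype.ext (u3_adj_zero hF)
      map_add' := fun x y => Subtype.ext (u3_adj_add hF x.1 y.1) }
  refine finrank_ne_two_of_semilinear_involution hF ↥K α ?_ ?_ hK.finrank_eq
  · intro c
    apply Subtype.ext
    show adj q (algebraMap F (Matrix (Fin n) (Fin n) F) c) =
      algebraMap F (Matrix (Fin n) (Fin n) F) (c ^ q)
    rw [Algebra.algebraMap_eq_smul_one, Algebra.algebraMap_eq_smul_one, u3_adj_smul, u3_adj_one hF]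
  · intro x
    exact Subtype.ext (u3_adj_adj hF x.1)

/-- U3 -/
theorem uprime_subfield (hF : Fintype.card F = q ^ 2) (H : Subgroup (GL (Fin n) F))
    (K : Subalgebra F (Matrix (Fin n) (Fin n) F)) (hK : H ≤ subalgebraNormalizer K)
    (hcomm : ∀ x ∈ K, ∀ y ∈ K, x * y = y * x)
    (hinv : ∀ x ∈ K, x ≠ 0 → ∃ y ∈ K, x * y = 1) (hne : ∃ x ∈ K, ∀ c : F, x ≠ c • 1)
    (hstar : StarClosed q K) :
    ∃ (r : ℕ) (K' : Subalgebra F (Matrix (Fin n) (Fin n) F)), r.Prime ∧ Odd r ∧
      IsFieldSubalgebra r K' ∧ StarClosed q K' ∧ H ≤ subalgebraNormalizer K' := by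
  obtain ⟨x₀, hx₀K, hx₀⟩ := hne
  have hnt : Nontrivial (Matrix (Fin n) (Fin n) F) := ⟨x₀, 0, by simpa using hx₀ 0⟩
  have hfield : IsField ↥K :=
    { exists_pair_ne := ⟨0, 1, fun h => zero_ne_one (congrArg Subtype.val h)⟩
      mul_comm := fun x y => Subtype.ext (hcomm x.1 x.2 y.1 y.2)
      mul_inv_cancel := by
        intro a ha
        obtain ⟨y, hy, hay⟩ := hinv a.1 a.2 (fun h => ha (Subtype.ext h))
        exact ⟨⟨y, hy⟩, Subtype.ext hay⟩ }
  let instF : Field ↥K := hfield.toField
  let instA : Algebra F ↥K := K.algebra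
  have hfinite : Finite ↥K := inferInstance
  let ψ : ↥K →ₐ[F] Matrix (Fin n) (Fin n) F := K.val
  obtain ⟨r, K', hr, hK', hmem⟩ := Cfsg.Agent.Lib.Helper58.Asch.exists_prime_subfield_matrix (↥K) ψ
    ⟨⟨x₀, hx₀K⟩, fun c h => hx₀ c (by
      have := congrArg Subtype.val h
      rw [Algebra.smul_def, mul_one]
      exact this)⟩
  have hmem' : ∀ k, k ∈ K' ↔ k ∈ K ∧ k ^ (Fintype.card F ^ r) = k := by
    intro k
    rw [hmem]
    constructor
    · rintro ⟨⟨x, rfl⟩, h⟩
      exact ⟨x.2, h⟩
    · rintro ⟨hk, h⟩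
      exact ⟨⟨⟨k, hk⟩, rfl⟩, h⟩
  have hstar' : StarClosed q K' := by
    intro k hk
    obtain ⟨hkK, hkp⟩ := (hmem' k).1 hk
    refine (hmem' _).2 ⟨hstar k hkK, ?_⟩
    rw [← u3_adj_pow hF, hkp]
  refine ⟨r, K', hr, ?_, hK', hstar', ?_⟩
  · rcases hr.eq_two_or_odd' with h | h
    · subst h
      exact (not_isFieldSubalgebra_two hF K' hK' hstar').elim
    · exact h
  · intro g hg k
    have h1 : (g : Matrix (Fin n) (Fin n) F) * ((g⁻¹ : GL (Fin n) F) : Matrix (Fin n) (Fin n) F) = 1 := by
      rw [← Units.val_mul, mul_inv_cancel, Units.val_one]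
    have h2 : ((g⁻¹ : GL (Fin n) F) : Matrix (Fin n) (Fin n) F) * (g : Matrix (Fin n) (Fin n) F) = 1 := by
      rw [← Units.val_mul, inv_mul_cancel, Units.val_one]
    have hpow : ∀ m : ℕ, ((g : Matrix (Fin n) (Fin n) F) * k *
        ((g⁻¹ : GL (Fin n) F) : Matrix (Fin n) (Fin n) F)) ^ m =
        (g : Matrix (Fin n) (Fin n) F) * k ^ m * ((g⁻¹ : GL (Fin n) F) : Matrix (Fin n) (Fin n) F) := by
      intro m
      induction m with
      | zero => simp
      | succ m ih =>
        rw [pow_succ, ih, pow_succ]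
        calc _ = (g : Matrix (Fin n) (Fin n) F) * k ^ m *
              (((g⁻¹ : GL (Fin n) F) : Matrix (Fin n) (Fin n) F) * (g : Matrix (Fin n) (Fin n) F)) * k *
              ((g⁻¹ : GL (Fin n) F) : Matrix (Fin n) (Fin n) F) := by simp only [mul_assoc]
          _ = _ := by rw [h2, mul_one]; simp only [mul_assoc]
    rw [hmem', hmem', hpow, ← hK hg k]
    refine and_congr_right ?_
    intro _
    constructor
    · intro h
      rw [h]
    · intro h
      have h3 := congrArg (fun M => ((g⁻¹ : GL (Fin n) F) : Matrix (Fin n) (Fin n) F) * M *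
        (g : Matrix (Fin n) (Fin n) F)) h
      have h4 : ∀ M : Matrix (Fin n) (Fin n) F, ((g⁻¹ : GL (Fin n) F) : Matrix (Fin n) (Fin n) F) *
          ((g : Matrix (Fin n) (Fin n) F) * M * ((g⁻¹ : GL (Fin n) F) : Matrix (Fin n) (Fin n) F)) *
          (g : Matrix (Fin n) (Fin n) F) = M := by
        intro M
        calc _ = (((g⁻¹ : GL (Fin n) F) : Matrix (Fin n) (Fin n) F) * (g : Matrix (Fin n) (Fin n) F)) * M *
              (((g⁻¹ : GL (Fin n) F) : Matrix (Fin n) (Fin n) F) * (g : Matrix (Fin n) (Fin n) F)) := by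
                simp only [mul_assoc]
          _ = M := by rw [h2, one_mul, mul_one]
      rwa [h4, h4] at h3

end Cfsg.Agent.Lib.Helper23.AschU
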